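import Mathlib

/-!
The abstract counting argument of B-G section 14.
-/

set_option autoImplicit false
namespace Cfsg.Agent.Lib.Helper28.BGZ
open Subgroup
universe u
variable {G : Type u} [Group G]

/-- the class support of a `TI`-like subset `Zo` of `Z` has at least `|G : Z| |Zo|` elements. -/
theorem index_mul_ncard_le [Finite G] (Z : Subgroup G) (Zo : Set G)
    (hZo : Zo ⊆ (Z : Set G))
    (hTI : ∀ z ∈ Zo, ∀ g : G, g * z * g⁻¹ ∈ Z → g ∈ Z) :
    Z.index * Zo.ncard ≤ Set.ncard {a : G | ∃ y : G, ∃ z ∈ Zo, a = y * z * y⁻¹} := by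
  classical
  let C : Set G := {a : G | ∃ y : G, ∃ z ∈ Zo, a = y * z * y⁻¹}
  let f : (G ⧸ Z) × ↥Zo → ↥C := fun p => ⟨p.1.out * p.2.1 * p.1.out⁻¹, p.1.out, p.2.1, p.2.2, rfl⟩
  have hf : Function.Injective f := by
    rintro ⟨q, z⟩ ⟨q', z'⟩ h
    have h' : q.out * z.1 * q.out⁻¹ = q'.out * z'.1 * q'.out⁻¹ := congrArg Subtype.val h
    have h1 : (q'.out⁻¹ * q.out) * z.1 * (q'.out⁻¹ * q.out)⁻¹ = z'.1 := by
      calc (q'.out⁻¹ * q.out) * z.1 * (q'.out⁻¹ * q.out)⁻¹
          = q'.out⁻¹ * (q.out * z.1 * q.out⁻¹) * q'.out := by group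
        _ = z'.1 := by rw [h']; group
    have h2 : q'.out⁻¹ * q.out ∈ Z := hTI z.1 z.2 _ (h1 ▸ hZo z'.2)
    have h3 : q' = q := by
      rw [← QuotientGroup.out_eq' q', ← QuotientGroup.out_eq' q]
      exact QuotientGroup.eq.mpr h2
    subst h3
    have h4 : z.1 = z'.1 := by
      have := h'
      simpa using this
    exact Prod.ext rfl (Subtype.ext h4)
  have := Nat.card_le_card_of_injective f hf
  rw [Nat.card_prod, Nat.card_coe_set_eq, Nat.card_coe_set_eq] at this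
  exact this

theorem count_contra [Finite G] (Z : Subgroup G) (Zo : Set G) (F : Finset (Subgroup G))
    (T : Subgroup G → Set G) (S : Subgroup G → Subgroup G)
    (hZo : Zo ⊆ (Z : Set G))
    (hTI : ∀ z ∈ Zo, ∀ g : G, g * z * g⁻¹ ∈ Z → g ∈ Z)
    (h1Zo : (1 : G) ∉ Zo)
    (hpart : Nat.card Z = 1 + Zo.ncard + ∑ L ∈ F, (Nat.card ↥(S L ⊓ Z) - 1))
    (hT1 : ∀ L ∈ F, (1 : G) ∉ T L)
    (hTcard : ∀ L ∈ F, (T L).ncard = (Nat.card (S L) - 1) * L.index)
    (hdisj : ∀ L ∈ F, ∀ L' ∈ F, L ≠ L' → Disjoint (T L) (T L'))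
    (hdisjZ : ∀ L ∈ F, ∀ z ∈ Zo, ∀ y : G, y * z * y⁻¹ ∉ T L)
    (hcard : ∀ L ∈ F, Nat.card L * Nat.card ↥(S L ⊓ Z) = Nat.card (S L) * Nat.card Z)
    (h3 : ∀ L ∈ F, 3 * Nat.card ↥(S L ⊓ Z) ≤ Nat.card (S L))
    (h2 : 2 ≤ F.card) : False := by
  classical
  have fin : ∀ s : Set G, s.Finite := fun s => Set.toFinite s
  set C : Set G := {a : G | ∃ y : G, ∃ z ∈ Zo, a = y * z * y⁻¹} with hC
  have hCle := index_mul_ncard_le Z Zo hZo hTI
  -- the disjoint union
  let t : Subgroup G → Finset G := fun L => (fin (T L)).toFinset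
  have hmt : ∀ L a, a ∈ t L ↔ a ∈ T L := fun L a => Set.Finite.mem_toFinset _
  have hB : (F.biUnion t).card = ∑ L ∈ F, (Nat.card (S L) - 1) * L.index := by
    rw [Finset.card_biUnion]
    · refine Finset.sum_congr rfl (fun L hL => ?_)
      rw [← hTcard L hL, Set.ncard_eq_toFinset_card _ (fin _)]
    · intro L hL L' hL' hne
      show Disjoint (t L) (t L')
      rw [Finset.disjoint_left]
      intro a ha ha'
      exact Set.disjoint_left.mp (hdisj L hL L' hL' hne) ((hmt L a).mp ha) ((hmt L' a).mp ha')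
  have hd : Disjoint (fin C).toFinset (F.biUnion t) := by
    rw [Finset.disjoint_left]
    intro a ha ha'
    obtain ⟨y, z, hz, rfl⟩ := (Set.Finite.mem_toFinset _).mp ha
    obtain ⟨L, hL, h⟩ := Finset.mem_biUnion.mp ha'
    exact hdisjZ L hL z hz y ((hmt L _).mp h)
  have h1 : (1 : G) ∉ (fin C).toFinset ∪ F.biUnion t := by
    intro h
    rcases Finset.mem_union.mp h with h | h
    · obtain ⟨y, z, hz, e⟩ := (Set.Finite.mem_toFinset _).mp h
      apply h1Zo
      have : z = 1 := by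
        calc z = y⁻¹ * (y * z * y⁻¹) * y := by group
          _ = 1 := by rw [← e]; group
      exact this ▸ hz
    · obtain ⟨L, hL, h⟩ := Finset.mem_biUnion.mp h
      exact hT1 L hL ((hmt L _).mp h)
  have hfinG : Fintype G := Fintype.ofFinite G
  have hle : ((fin C).toFinset ∪ F.biUnion t).card + 1 ≤ Nat.card G := by
    rw [← Finset.card_insert_of_notMem h1, Nat.card_eq_fintype_card]
    exact Finset.card_le_univ _
  rw [Finset.card_union_of_disjoint hd, hB, ← Set.ncard_eq_toFinset_card _ (fin _)] at hle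
  -- arithmetic
  set g := Nat.card G with hg
  set ζ := Nat.card Z with hζ
  set zo := Zo.ncard with hzo
  have hgpos : 0 < g := Nat.card_pos
  have hζpos : 0 < ζ := Nat.card_pos
  have hii : ζ * Z.index = g := Z.card_mul_index
  have hA : ∑ L ∈ F, (Nat.card ↥(S L ⊓ Z) - 1) + F.card = ∑ L ∈ F, Nat.card ↥(S L ⊓ Z) := by
    rw [Finset.card_eq_sum_ones, ← Finset.sum_add_distrib]
    refine Finset.sum_congr rfl (fun L _ => ?_)
    have : 0 < Nat.card ↥(S L ⊓ Z) := Nat.card_pos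
    omega
  have hiv : 3 * g * ∑ L ∈ F, Nat.card ↥(S L ⊓ Z) ≤
      3 * ζ * (∑ L ∈ F, (Nat.card (S L) - 1) * L.index) + g * F.card := by
    rw [Finset.mul_sum, Finset.mul_sum, Finset.card_eq_sum_ones, Finset.mul_sum,
      ← Finset.sum_add_distrib]
    refine Finset.sum_le_sum (fun L hL => ?_)
    have ha : 0 < Nat.card ↥(S L ⊓ Z) := Nat.card_pos
    have hs : 0 < Nat.card (S L) := Nat.card_pos
    have hLi : Nat.card L * L.index = g := L.card_mul_index
    have e1 : g * Nat.card ↥(S L ⊓ Z) = L.index * ζ * Nat.card (S L) := by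
      rw [← hLi]
      calc Nat.card L * L.index * Nat.card ↥(S L ⊓ Z)
          = L.index * (Nat.card L * Nat.card ↥(S L ⊓ Z)) := by ring
        _ = L.index * ζ * Nat.card (S L) := by rw [hcard L hL]; ring
    have e2 : 3 * (L.index * ζ) ≤ g := by
      have : 3 * (L.index * ζ) * Nat.card ↥(S L ⊓ Z) ≤ g * Nat.card ↥(S L ⊓ Z) := by
        rw [e1]
        calc 3 * (L.index * ζ) * Nat.card ↥(S L ⊓ Z)
            = L.index * ζ * (3 * Nat.card ↥(S L ⊓ Z)) := by ring
          _ ≤ L.index * ζ * Nat.card (S L) := Nat.mul_le_mul_left _ (h3 L hL)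
      exact Nat.le_of_mul_le_mul_right this ha
    obtain ⟨s, hs'⟩ : ∃ s, Nat.card (S L) = s + 1 := ⟨Nat.card (S L) - 1, by omega⟩
    rw [hs'] at e1 ⊢
    simp only [Nat.add_sub_cancel, mul_one]
    nlinarith [e1, e2]
  set A := ∑ L ∈ F, Nat.card ↥(S L ⊓ Z) with hAdef
  set B := ∑ L ∈ F, (Nat.card (S L) - 1) * L.index with hBdef
  set f := F.card with hf
  have hiii : ζ + f = 1 + zo + A := by rw [← hA, hpart]; ring
  have hi : Z.index * zo + B + 1 ≤ g :=
    (Nat.add_le_add_right (Nat.add_le_add_right hCle B) 1).trans hle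
  have e1 : 3 * ζ * (Z.index * zo + B + 1) ≤ 3 * ζ * g := Nat.mul_le_mul_left _ hi
  have e2 : ζ * Z.index * zo = g * zo := by rw [hii]
  have e3 : g * (ζ + f) = g * (1 + zo + A) := by rw [hiii]
  have e4 : g * 2 ≤ g * f := Nat.mul_le_mul_left _ h2
  nlinarith [e1, e2, e3, e4, hiv]

end Cfsg.Agent.Lib.Helper28.BGZ
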