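import Mathlib

/-!
A partition count used in the B-G section 14 counting argument.
-/

set_option autoImplicit false
namespace Cfsg.Agent.Lib.Helper28.BGZ
open Subgroup
universe u
variable {G : Type u} [Group G]

theorem card_partition [Finite G] (Z : Subgroup G) (Zo : Set G) (F : Finset (Subgroup G))
    (S : Subgroup G → Subgroup G)
    (hZo : Zo ⊆ (Z : Set G)) (h1 : (1 : G) ∉ Zo)
    (hcov : ∀ z ∈ Z, z ≠ 1 → z ∉ Zo → ∃ L ∈ F, z ∈ S L)
    (hdisjo : ∀ z ∈ Zo, ∀ L ∈ F, z ∉ S L)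
    (hdisj : ∀ L ∈ F, ∀ L' ∈ F, L ≠ L' → S L ⊓ S L' = ⊥) :
    Nat.card Z = 1 + Zo.ncard + ∑ L ∈ F, (Nat.card ↥(S L ⊓ Z) - 1) := by
  classical
  have fin : ∀ s : Set G, s.Finite := fun s => Set.toFinite s
  let t : Subgroup G → Finset G :=
    fun L => (fin (((S L ⊓ Z : Subgroup G) : Set G) \ {1})).toFinset
  have hmt : ∀ L a, a ∈ t L ↔ (a ∈ S L ∧ a ∈ Z) ∧ a ≠ 1 := by
    intro L a
    simp only [t, Set.Finite.mem_toFinset, Set.mem_sdiff, SetLike.mem_coe, Set.mem_singleton_iff,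
      mem_inf]
  have ht : ∀ L, (t L).card = Nat.card ↥(S L ⊓ Z) - 1 := by
    intro L
    rw [← Set.ncard_eq_toFinset_card _ (fin _),
      Set.ncard_sdiff (by simp) (fin _), Set.ncard_singleton]
    rfl
  have hB : (↑(F.biUnion t) : Set G).ncard = ∑ L ∈ F, (Nat.card ↥(S L ⊓ Z) - 1) := by
    rw [Set.ncard_coe_finset, Finset.card_biUnion]
    · exact Finset.sum_congr rfl (fun L _ => ht L)
    · intro L hL L' hL' hne
      show Disjoint (t L) (t L')
      rw [Finset.disjoint_left]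
      intro a ha ha'
      apply ((hmt L a).mp ha).2
      rw [← mem_bot, ← hdisj L hL L' hL' hne]
      exact ⟨((hmt L a).mp ha).1.1, ((hmt L' a).mp ha').1.1⟩
  have hZset : (Z : Set G) = ({1} ∪ Zo) ∪ ↑(F.biUnion t) := by
    ext z
    simp only [Set.mem_union, Set.mem_singleton_iff, SetLike.mem_coe, Finset.mem_biUnion]
    constructor
    · intro hz
      by_cases hz1 : z = 1
      · exact Or.inl (Or.inl hz1)
      by_cases hzo : z ∈ Zo
      · exact Or.inl (Or.inr hzo)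
      obtain ⟨L, hL, hzL⟩ := hcov z hz hz1 hzo
      exact Or.inr ⟨L, hL, (hmt L z).mpr ⟨⟨hzL, hz⟩, hz1⟩⟩
    · rintro ((rfl | hz) | ⟨L, -, hz⟩)
      · exact Z.one_mem
      · exact hZo hz
      · exact ((hmt L z).mp hz).1.2
  have hd1 : Disjoint ({1} : Set G) Zo := by
    rw [Set.disjoint_singleton_left]; exact h1
  have hd2 : Disjoint (({1} : Set G) ∪ Zo) ↑(F.biUnion t) := by
    rw [Set.disjoint_left]
    rintro z (hz | hz) hz'
    · obtain ⟨L, -, h⟩ := Finset.mem_biUnion.mp (Finset.mem_coe.mp hz')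
      exact ((hmt L z).mp h).2 hz
    · obtain ⟨L, hL, h⟩ := Finset.mem_biUnion.mp (Finset.mem_coe.mp hz')
      exact hdisjo z hz L hL ((hmt L z).mp h).1.1
  have : Nat.card Z = (Z : Set G).ncard := rfl
  rw [this, hZset, Set.ncard_union_eq hd2 (fin _) (fin _), Set.ncard_union_eq hd1 (fin _) (fin _),
    Set.ncard_singleton, hB]

end Cfsg.Agent.Lib.Helper28.BGZ
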